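import Mathlib
import Cfsg.Agent.Lib.Golay.LinOrb.Data
import Cfsg.Agent.Lib.Golay.Normalizer
import Cfsg.Agent.Lib.Leech.Basic
import Cfsg.Agent.Lib.Leech.Orbits
import Cfsg.Agent.S1635

/-!
A linear map of the code that keeps the weights up to the all-one word comes from the Mathieu group.
-/

set_option autoImplicit false
set_option linter.unusedSimpArgs false

namespace Cfsg.Lib.Golay.LinOrb

open Cfsg Cfsg.Lib.Golay
open scoped Pointwise

attribute [local irreducible] octMasks spanL

/-- The words. -/
abbrev Wd := GolayPt → ZMod 2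

/-- The standard product. -/
def dotW (u v : Wd) : ZMod 2 := ∑ p, u p * v p

theorem val_ite (u : Wd) (p : GolayPt) : u p = if p ∈ support₂ u then 1 else 0 := by
  simp only [support₂, Finset.mem_filter, Finset.mem_univ, true_and]
  generalize u p = a
  revert a
  decide

theorem dotW_card (u v : Wd) : dotW u v = ((support₂ u ∩ support₂ v).card : ZMod 2) := by
  have e : ∀ p, u p * v p = if p ∈ support₂ u ∩ support₂ v then 1 else 0 := fun p => by
    rw [val_ite u p, val_ite v p]
    by_cases h1 : p ∈ support₂ u <;> by_cases h2 : p ∈ support₂ v <;> simp [h1, h2]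
  unfold dotW
  rw [Finset.sum_congr rfl fun p _ => e p, Finset.sum_boole,
    show (Finset.univ.filter fun p => p ∈ support₂ u ∩ support₂ v) = support₂ u ∩ support₂ v by ext; simp]

theorem dotW_code {u v : Wd} (hu : u ∈ golayCode) (hv : v ∈ golayCode) : dotW u v = 0 := by
  rw [dotW_card]
  have hs : ∀ {w : Wd}, w ∈ golayCode → support₂ w ∈ supports (golayCode : Set Wd) := fun {w} h =>
    ⟨w, h, rfl⟩
  have h := Cfsg.Lib.Leech.inter_even (hs hu) (hs hv)
  rw [(ZMod.natCast_eq_zero_iff_even)]
  exact Nat.even_iff.2 h

theorem supp_card_toWord (n : ℕ) : (support₂ (toWord n)).card = pop n := by rw [support_toWord, card_toSet]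

theorem supp_add (u v : Wd) : support₂ (u + v) = symmDiff (support₂ u) (support₂ v) := by
  ext p
  simp only [support₂, Finset.mem_symmDiff, Finset.mem_filter, Finset.mem_univ, true_and, Pi.add_apply]
  generalize u p = a; generalize v p = b
  revert a b
  decide

theorem supp_one : support₂ (1 : Wd) = Finset.univ := by ext p; simp [support₂]

theorem supp_compl (u : Wd) : (support₂ (u + 1)).card = 24 - (support₂ u).card := by
  rw [supp_add, supp_one, show symmDiff (support₂ u) Finset.univ = (support₂ u)ᶜ by ext; simp [Finset.mem_symmDiff],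
    Finset.card_compl]
  rfl

theorem card_add (u v : Wd) : (support₂ (u + v)).card + 2 * (support₂ u ∩ support₂ v).card =
    (support₂ u).card + (support₂ v).card := by
  rw [supp_add]
  have h1 : symmDiff (support₂ u) (support₂ v) = (support₂ u ∪ support₂ v) \ (support₂ u ∩ support₂ v) := by
    rw [symmDiff_eq_sup_sdiff_inf]; rfl
  have h2 := Finset.card_sdiff_add_card_eq_card
    (Finset.inter_subset_union (s := support₂ u) (t := support₂ v))
  have h3 := Finset.card_union_add_card_inter (support₂ u) (support₂ v)
  rw [h1]; omega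

theorem add_self' (u : Wd) : u + u = 0 := by
  funext p; show u p + u p = 0; generalize u p = a; revert a; decide

/-- The code element of a mask. -/
def cw (n : ℕ) (h : inCode n = true) : ↥golayCode := ⟨toWord n, toWord_mem_golayCode h⟩

theorem cw_xor {a b : ℕ} (ha : inCode a = true) (hb : inCode b = true) :
    cw (a ^^^ b) (inCode_xor ha hb) = cw a ha + cw b hb := Subtype.ext (toWord_xor a b)

theorem oct_inCode {a : ℕ} (h : a ∈ octMasks) : inCode a = true ∧ pop a = 8 := by
  have := List.all_eq_true.1 octMasks_sound a h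
  simpa only [Bool.and_eq_true, beq_iff_eq] using this

/-- Parity counts over the octads. -/
noncomputable def oddCount (S : Finset GolayPt) : ℕ :=
  (octadFinset.filter fun o => Odd (o ∩ S).card).card

theorem oddCount_smul {σ : Equiv.Perm GolayPt} (hσ : σ ∈ M24) (S : Finset GolayPt) :
    oddCount (σ • S) = oddCount S := by
  classical
  have hmem : ∀ {τ : Equiv.Perm GolayPt}, τ ∈ M24 → ∀ {o}, o ∈ octadFinset → τ • o ∈ octadFinset := by
    intro τ hτ o ho
    rw [← Finset.mem_coe, coe_octadFinset] at ho ⊢
    exact smul_mem_octads (M24_eq_setSystemAut ▸ hτ) ho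
  have hcard : ∀ (τ : Equiv.Perm GolayPt) (o T : Finset GolayPt), ((τ • o) ∩ (τ • T)).card = (o ∩ T).card :=
    fun τ o T => by rw [← Finset.smul_finset_inter, Finset.card_smul_finset]
  refine Finset.card_bij' (fun o _ => σ⁻¹ • o) (fun o _ => σ • o) (fun o ho => ?_) (fun o ho => ?_)
    (fun o _ => smul_inv_smul σ o) (fun o _ => inv_smul_smul σ o)
  · rw [Finset.mem_filter] at ho ⊢
    refine ⟨hmem (M24.inv_mem hσ) ho.1, ?_⟩
    have := hcard σ⁻¹ o (σ • S)
    rw [inv_smul_smul] at this
    rw [this]; exact ho.2
  · rw [Finset.mem_filter] at ho ⊢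
    exact ⟨hmem hσ ho.1, by rw [hcard]; exact ho.2⟩

theorem countP_octads (P : Finset GolayPt → Bool) :
    (octadFinset.filter fun o => P o = true).card = octMasks.countP fun m => P (toSet m) := by
  classical
  have hinj : Set.InjOn toSet {m | m ∈ octMasks} := fun a ha b hb e => by
    rw [← setNat_toSet (lt_of_inCode (oct_inCode ha).1), ← setNat_toSet (lt_of_inCode (oct_inCode hb).1), e]
  rw [octadFinset, Finset.filter_image, Finset.card_image_of_injOn]
  · rw [List.countP_eq_length_filter, ← List.toFinset_card_of_nodup (octMasks_nodup.filter _)]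
    refine congrArg Finset.card (Finset.ext fun m => ?_)
    simp [List.mem_filter]
  · intro a ha b hb e
    rw [Finset.coe_filter] at ha hb
    exact hinj (List.mem_toFinset.1 ha.1) (List.mem_toFinset.1 hb.1) e

set_option maxRecDepth 100000 in
theorem small_counts' : ∀ k < 5, (octMasks.countP fun m => decide (pop (m &&& (2 ^ k - 1)) % 2 = 1)) =
    [0, 253, 352, 381, 384].getD k 0 := by decide +kernel

theorem oddCount_small {S : Finset GolayPt} (hS : S.card ≤ 4) :
    oddCount S = [0, 253, 352, 381, 384].getD S.card 0 := by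
  classical
  obtain ⟨σ, hσ, -, hmove⟩ := Cfsg.Lib.Leech.exists_perm_sets ∅ S (toSet (2 ^ S.card - 1))
    (Finset.disjoint_empty_left _) (Finset.disjoint_empty_left _)
    (by
      rw [card_toSet]
      have : S.card = 0 ∨ S.card = 1 ∨ S.card = 2 ∨ S.card = 3 ∨ S.card = 4 := by omega
      rcases this with h | h | h | h | h <;> rw [h] <;> decide +kernel)
    (by simp; omega)
  rw [← oddCount_smul hσ S, hmove]
  have e : oddCount (toSet (2 ^ S.card - 1)) =
      octMasks.countP fun m => decide (pop (m &&& (2 ^ S.card - 1)) % 2 = 1) := by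
    unfold oddCount
    have h := countP_octads fun o => decide (Odd (o ∩ toSet (2 ^ S.card - 1)).card)
    simp only [decide_eq_true_eq] at h
    rw [h]
    refine List.countP_congr fun m _ => ?_
    have hi : toSet m ∩ toSet (2 ^ S.card - 1) = toSet (m &&& (2 ^ S.card - 1)) := by
      ext p; simp only [Finset.mem_inter, mem_toSet, Nat.testBit_and, Bool.and_eq_true]
    simp [hi, card_toSet, Nat.odd_iff]
  rw [e]
  exact small_counts' S.card (by omega)

set_option maxHeartbeats 1600000 in
set_option maxRecDepth 4000 in
theorem exists_mathieu (x : ↥golayCode ≃ₗ[ZMod 2] ↥golayCode)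
    (h1 : ∀ e : ↥golayCode, (e : Wd) = 1 → x e = e)
    (hw : ∀ c : ↥golayCode, (support₂ ((x c : Wd))).card = (support₂ (c : Wd)).card ∨
      (support₂ ((x c : Wd))).card = 24 - (support₂ (c : Wd)).card) :
    ∃ σ ∈ M24, ∀ c : ↥golayCode, ((x c : Wd)) = (fun p => (c : Wd) (σ.symm p)) ∨
      ((x c : Wd)) = (fun p => (c : Wd) (σ.symm p)) + 1 := by
  classical
  obtain ⟨hlen, hseed, hdual⟩ := seeds_check
  have hsc : ∀ i : Fin 12, inCode (seedMasks.getD i 0) = true ∧ pop (seedMasks.getD i 0) = 8 := fun i => by
    have hl : (i : ℕ) < seedMasks.length := by rw [hlen]; exact i.2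
    have := List.all_eq_true.1 hseed (seedMasks.getD i 0) (by rw [List.getD_eq_getElem _ _ hl]; exact List.getElem_mem hl)
    simpa only [Bool.and_eq_true, beq_iff_eq] using this
  -- the normalised images of the seeds
  have hex : ∀ i : Fin 12, ∃ t : Wd, (support₂ t).card = 8 ∧
      ((x (cw _ (hsc i).1) : Wd) = t ∨ (x (cw _ (hsc i).1) : Wd) = t + 1) := by
    intro i
    have h8 : (support₂ ((cw _ (hsc i).1 : ↥golayCode) : Wd)).card = 8 := by
      show (support₂ (toWord _)).card = 8
      rw [supp_card_toWord]; exact (hsc i).2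
    rcases hw (cw _ (hsc i).1) with h | h
    · exact ⟨_, h.trans h8, Or.inl rfl⟩
    · refine ⟨(x (cw _ (hsc i).1) : Wd) + 1, ?_, Or.inr ?_⟩
      · rw [supp_compl, h, h8]
      · rw [add_assoc, add_self', add_zero]
  choose t ht hxt using hex
  let d : Fin 12 → Wd := fun i => toWord (dualMasks.getD i 0)
  let y : Wd → Wd := fun c => ∑ i, dotW c (d i) • t i
  have yadd : ∀ a b : Wd, y (a + b) = y a + y b := fun a b => by
    simp only [y, dotW, Pi.add_apply, add_mul, Finset.sum_add_distrib, add_smul]
  have yseed : ∀ i : Fin 12, y (toWord (seedMasks.getD i 0)) = t i := fun i => by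
    have e : ∀ j : Fin 12, dotW (toWord (seedMasks.getD i 0)) (d j) = if i = j then 1 else 0 := fun j => by
      rw [dotW_card, support_toWord, support_toWord,
        show toSet (seedMasks.getD i 0) ∩ toSet (dualMasks.getD j 0) =
          toSet (seedMasks.getD i 0 &&& dualMasks.getD j 0) by ext p; simp [mem_toSet, Nat.testBit_and],
        card_toSet, ← ZMod.natCast_mod, hdual i i.2 j j.2]
      by_cases h : i = j
      · subst h; simp
      · rw [if_neg h, if_neg (fun e => h (Fin.ext e))]; simp
    simp only [y, e, ite_smul, one_smul, zero_smul, Finset.sum_ite_eq, Finset.mem_univ, if_true]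
  let R : Wd → Wd → Prop := fun u v => u = v ∨ u = v + 1
  have Radd : ∀ {a b c e : Wd}, R a b → R c e → R (a + c) (b + e) := by
    rintro a b c e (rfl | rfl) (rfl | rfl)
    · exact Or.inl rfl
    · exact Or.inr (by abel)
    · exact Or.inr (by abel)
    · refine Or.inl ?_
      rw [show b + 1 + (e + 1) = b + e + (1 + 1) by abel, add_self', add_zero]
  -- the invariant on octads
  let Q : ℕ → Prop := fun a => ∃ h : inCode a = true,
    (support₂ (y (toWord a))).card = 8 ∧ R ((x (cw a h) : Wd)) (y (toWord a))
  have hQ : ∀ m ∈ octMasks, Q m := by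
    refine rels_induction (fun m hm => ?_) fun a b P ha hb h8 hP hP8 h12c h12a h12b => ?_
    · obtain ⟨i, hi, rfl⟩ := List.mem_iff_getElem.1 hm
      rw [hlen] at hi
      rw [← List.getD_eq_getElem seedMasks 0]
      have hy : y (toWord (seedMasks.getD i 0)) = t ⟨i, hi⟩ := yseed ⟨i, hi⟩
      exact ⟨(hsc ⟨i, hi⟩).1, by rw [hy]; exact ht _, by rw [hy]; exact hxt ⟨i, hi⟩⟩
    obtain ⟨ia, wa, ra⟩ := ha
    obtain ⟨ib, wb, rb⟩ := hb
    have ic := inCode_xor ia ib
    have hlin : (x (cw _ ic) : Wd) = (x (cw a ia) : Wd) + (x (cw b ib) : Wd) := by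
      rw [cw_xor ia ib, map_add, Submodule.coe_add]
    have hc : R ((x (cw _ ic) : Wd)) (y (toWord (a ^^^ b))) := by
      rw [hlin, toWord_xor, yadd]; exact Radd ra rb
    refine ⟨ic, ?_, hc⟩
    rw [toWord_xor, yadd] at hc ⊢
    set A := y (toWord a)
    set B := y (toWord b)
    have hcw : ∀ (n : ℕ) (h : inCode n = true), (support₂ ((cw n h : ↥golayCode) : Wd)).card = pop n :=
      fun n h => supp_card_toWord n
    have hwc := hw (cw _ ic)
    rw [hcw, h8] at hwc
    have hC : (support₂ (A + B)).card = 8 ∨ (support₂ (A + B)).card = 16 := by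
      rcases hc with h | h <;> rw [h] at hwc
      · omega
      · rw [supp_compl] at hwc
        have := (support₂ (A + B)).card_le_univ
        simp only [Fintype.card_option, ZMod.card] at this
        omega
    rcases hC with h | h
    · exact h
    exfalso
    set q := (x (cw P hP) : Wd)
    have hq : (support₂ q).card = 8 ∨ (support₂ q).card = 16 := by
      have := hw (cw P hP); rw [hcw, hP8] at this; omega
    have h12 : ∀ (n : ℕ) (hn : inCode n = true) (N : Wd), R ((x (cw n hn) : Wd)) N → pop (P ^^^ n) = 12 →
        (support₂ (q + N)).card = 12 := by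
      intro n hn N hN hp
      have e : (x (cw _ (inCode_xor hP hn)) : Wd) = q + (x (cw n hn) : Wd) := by
        rw [cw_xor hP hn, map_add, Submodule.coe_add]
      have h' := hw (cw _ (inCode_xor hP hn))
      rw [hcw, hp, e] at h'
      rcases hN with hN | hN <;> rw [hN] at h'
      · omega
      · rw [show q + (N + 1) = q + N + 1 by abel, supp_compl] at h'
        omega
    have k1 := h12 a ia A ra h12a
    have k2 := h12 b ib B rb h12b
    have k3 := h12 _ ic _ hc h12c
    have c1 := card_add q A
    have c2 := card_add q B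
    have c3 := card_add q (A + B)
    have c4 := card_add A B
    have hsplit : (support₂ q ∩ support₂ (A + B)).card =
        (support₂ q ∩ support₂ A).card + (support₂ q ∩ support₂ B).card := by
      have hd : support₂ A ∩ support₂ B = ∅ := Finset.card_eq_zero.1 (by omega)
      rw [supp_add, show symmDiff (support₂ A) (support₂ B) = support₂ A ∪ support₂ B from by
        ext p
        have : ¬(p ∈ support₂ A ∧ p ∈ support₂ B) := by rw [← Finset.mem_inter, hd]; simp
        by_cases hA : p ∈ support₂ A <;> by_cases hB : p ∈ support₂ B <;>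
          simp [Finset.mem_symmDiff, hA, hB]
        exact absurd ⟨hA, hB⟩ this, Finset.inter_union_distrib_left, Finset.card_union_of_disjoint]
      exact (Finset.disjoint_iff_inter_eq_empty.2 hd).mono Finset.inter_subset_right Finset.inter_subset_right
    omega
  -- the relation on the whole code
  have hall : ∀ c : ↥golayCode, R ((x c : Wd)) (y (c : Wd)) := by
    intro c
    obtain ⟨n, hn, e⟩ := exists_mask c.2
    have hc : c = cw n hn := Subtype.ext e.symm
    subst hc
    have : ∀ k ∈ spanL codeGens, ∃ h : inCode k = true, R ((x (cw k h) : Wd)) (y (toWord k)) := by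
      refine spanL_induction codeGens ⟨inCode_zero, Or.inl ?_⟩ fun g hg a ⟨ha, ra⟩ => ?_
      · have : cw 0 inCode_zero = 0 := Subtype.ext toWord_zero
        rw [this, map_zero, toWord_zero]
        simp [y, dotW]
      · obtain ⟨hgc, -, rg⟩ := hQ g ((by decide +kernel : ∀ g ∈ codeGens, g ∈ octMasks) g hg)
        refine ⟨inCode_xor ha hgc, ?_⟩
        rw [cw_xor ha hgc, map_add, Submodule.coe_add, toWord_xor, yadd]
        exact Radd ra rg
    obtain ⟨h, r⟩ := this n ((inCode_iff n).1 hn)
    exact r
  have yinj : ∀ a ∈ octMasks, ∀ b ∈ octMasks, y (toWord a) = y (toWord b) → a = b := by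
    intro a ha b hb e
    obtain ⟨ia, -, ra⟩ := hQ a ha
    obtain ⟨ib, -, rb⟩ := hQ b hb
    rw [e] at ra
    have key : (x (cw a ia) : Wd) = x (cw b ib) ∨ (x (cw a ia) : Wd) = (x (cw b ib) : Wd) + 1 := by
      rcases ra with p | p <;> rcases rb with q | q <;> rw [p, q]
      · exact Or.inl rfl
      · exact Or.inr (by rw [add_assoc, add_self', add_zero])
      · exact Or.inr rfl
      · exact Or.inl rfl
    have hsame : ∀ {u v : ℕ}, inCode u = true → inCode v = true → toWord u = toWord v → u = v := fun {u v} hu hv h => by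
      rw [← setNat_toSet (lt_of_inCode hu), ← setNat_toSet (lt_of_inCode hv), ← support_toWord, ← support_toWord, h]
    rcases key with k | k
    · exact hsame ia ib (congrArg Subtype.val (x.injective (Subtype.ext k)))
    · exfalso
      let one : ↥golayCode := ⟨1, Submodule.subset_span (Or.inr rfl)⟩
      have h' : x (cw a ia) = x (cw b ib + one) := by
        refine Subtype.ext ?_
        rw [map_add, h1 one rfl, Submodule.coe_add]; exact k
      have h2 := congrArg (fun c : ↥golayCode => (support₂ (c : Wd)).card) (x.injective h')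
      simp only [Submodule.coe_add] at h2
      change (support₂ (toWord a)).card = (support₂ (toWord b + 1)).card at h2
      rw [supp_compl, supp_card_toWord, supp_card_toWord, (oct_inCode ha).2, (oct_inCode hb).2] at h2
      norm_num at h2
  have ycode : ∀ {c : Wd}, c ∈ golayCode → y c ∈ golayCode := fun {c} hc => by
    rcases hall ⟨c, hc⟩ with h | h
    · exact h ▸ (x ⟨c, hc⟩).2
    · have h' : y c = (x ⟨c, hc⟩ : Wd) + 1 := by rw [h, add_assoc, add_self', add_zero]
      rw [h']
      exact Submodule.add_mem _ (x ⟨c, hc⟩).2 (Submodule.subset_span (Or.inr rfl))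
  let T : ℕ → ℕ := fun m => setNat (support₂ (y (toWord m)))
  have hT : ∀ m ∈ octMasks, T m ∈ octMasks := by
    intro m hm
    obtain ⟨i, w8, -⟩ := hQ m hm
    refine (mem_octads_iff _).1 ⟨⟨_, ycode (toWord_mem_golayCode i), rfl⟩, w8⟩
  have hTbij : (octMasks.toFinset.image T) = octMasks.toFinset := by
    refine Finset.eq_of_subset_of_card_le (fun m hm => ?_) ?_
    · obtain ⟨a, ha, rfl⟩ := Finset.mem_image.1 hm
      exact List.mem_toFinset.2 (hT a (List.mem_toFinset.1 ha))
    · rw [Finset.card_image_of_injOn]
      intro a ha b hb e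
      refine yinj a (List.mem_toFinset.1 ha) b (List.mem_toFinset.1 hb) ?_
      rw [← toWord_support (y (toWord a)), ← toWord_support (y (toWord b))]
      exact congrArg toWord e
  -- each coordinate is a coordinate
  have hpoint : ∀ p, ∃ q, ∀ c : Wd, c ∈ golayCode → y c p = c q := by
    intro p
    let w : Wd := ∑ i, t i p • d i
    have hyw : ∀ c : Wd, y c p = dotW c w := fun c => by
      simp only [y, w, dotW, Finset.sum_apply, Pi.smul_apply, smul_eq_mul, Finset.mul_sum, Finset.sum_mul]
      rw [Finset.sum_comm]
      exact Finset.sum_congr rfl fun j _ => Finset.sum_congr rfl fun i _ => by ring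
    obtain ⟨v, hv4, hvc⟩ : ∃ v : Wd, (support₂ v).card ≤ 4 ∧ w - v ∈ golayCode := by
      rcases Cfsg.Agent.S1635.result w with ⟨-, v, h, h'⟩ | ⟨h6, -⟩
      · exact ⟨v, by rw [← hammingNorm_eq]; omega, h'⟩
      · obtain ⟨v, hv, hv'⟩ := Set.nonempty_of_ncard_ne_zero (by rw [h6]; norm_num :
          {v : Wd | hammingNorm v ≤ 4 ∧ w - v ∈ golayCode}.ncard ≠ 0)
        exact ⟨v, by rw [← hammingNorm_eq]; exact hv, hv'⟩
    have hdot : ∀ c : Wd, c ∈ golayCode → y c p = dotW c v := fun c hc => by
      have h := dotW_code hc hvc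
      have e : dotW c (w - v) = dotW c w - dotW c v := by
        simp only [dotW, Pi.sub_apply, mul_sub, Finset.sum_sub_distrib]
      rw [hyw, ← sub_eq_zero, ← e, h]
    have hcount : oddCount (support₂ v) = 253 := by
      have h253 : octMasks.countP (fun m => m.testBit (idx p)) = 253 := by
        have := List.all_eq_true.1 point_counts (idx p) (List.mem_range.2 (idx_lt p))
        rwa [beq_iff_eq] at this
      rw [← h253]
      unfold oddCount
      have h := countP_octads fun o => decide (Odd (o ∩ support₂ v).card)
      simp only [decide_eq_true_eq] at h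
      rw [h, List.countP_eq_length_filter, ← List.toFinset_card_of_nodup (octMasks_nodup.filter _),
        List.countP_eq_length_filter, ← List.toFinset_card_of_nodup (octMasks_nodup.filter _)]
      have hiff : ∀ m ∈ octMasks, (T m).testBit (idx p) = true ↔ Odd (toSet m ∩ support₂ v).card := by
        intro m hm
        obtain ⟨i, -, -⟩ := hQ m hm
        have h2 := hdot _ (toWord_mem_golayCode i)
        rw [dotW_card, support_toWord] at h2
        rw [← mem_toSet, toSet_setNat, ← ZMod.natCast_eq_one_iff_odd, ← h2]
        simp only [support₂, Finset.mem_filter, Finset.mem_univ, true_and]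
        generalize y (toWord m) p = z
        revert z
        decide
      refine Finset.card_bij (fun m _ => T m) (fun m hm => ?_) (fun a ha b hb e => ?_) (fun m hm => ?_)
      · rw [List.mem_toFinset, List.mem_filter, decide_eq_true_eq] at hm
        exact List.mem_toFinset.2 (List.mem_filter.2 ⟨hT m hm.1, (hiff m hm.1).2 hm.2⟩)
      · rw [List.mem_toFinset, List.mem_filter] at ha hb
        refine yinj a ha.1 b hb.1 ?_
        rw [← toWord_support (y (toWord a)), ← toWord_support (y (toWord b))]
        exact congrArg toWord e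
      · rw [List.mem_toFinset, List.mem_filter] at hm
        have : m ∈ octMasks.toFinset.image T := by rw [hTbij]; exact List.mem_toFinset.2 hm.1
        obtain ⟨a, ha, rfl⟩ := Finset.mem_image.1 this
        have ha' := List.mem_toFinset.1 ha
        exact ⟨a, List.mem_toFinset.2 (List.mem_filter.2 ⟨ha', by simpa using (hiff a ha').1 hm.2⟩), rfl⟩
    rw [oddCount_small hv4] at hcount
    have h1' : (support₂ v).card = 1 := by
      have : (support₂ v).card = 0 ∨ (support₂ v).card = 1 ∨ (support₂ v).card = 2 ∨ (support₂ v).card = 3 ∨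
          (support₂ v).card = 4 := by omega
      rcases this with h | h | h | h | h <;> rw [h] at hcount <;> first | exact h | simp at hcount
    obtain ⟨q, hq⟩ := Finset.card_eq_one.1 h1'
    refine ⟨q, fun c hc => ?_⟩
    rw [hdot c hc, dotW_card, hq, val_ite c q]
    by_cases h : q ∈ support₂ c
    · rw [if_pos h, Finset.inter_singleton_of_mem h]; simp
    · rw [if_neg h, Finset.inter_singleton_of_notMem h]; simp
  choose π hπ using hpoint
  have hπinj : Function.Injective π := by
    intro p q e
    by_contra hne
    have hsep := List.all_eq_true.1 (List.all_eq_true.1 point_separation (idx p) (List.mem_range.2 (idx_lt p)))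
      (idx q) (List.mem_range.2 (idx_lt q))
    rw [Bool.or_eq_true, beq_iff_eq, List.any_eq_true] at hsep
    rcases hsep with h | ⟨m, hm, h⟩
    · exact hne (idx_inj h)
    · have : m ∈ octMasks.toFinset.image T := by rw [hTbij]; exact List.mem_toFinset.2 hm
      obtain ⟨a, ha, rfl⟩ := Finset.mem_image.1 this
      obtain ⟨i, -, -⟩ := hQ a (List.mem_toFinset.1 ha)
      have hpq : y (toWord a) p = y (toWord a) q := by
        rw [hπ p _ (toWord_mem_golayCode i), hπ q _ (toWord_mem_golayCode i), e]
      have hb : (T a).testBit (idx p) = (T a).testBit (idx q) := by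
        rw [Bool.eq_iff_iff, ← mem_toSet, ← mem_toSet, toSet_setNat]
        simp only [support₂, Finset.mem_filter, Finset.mem_univ, true_and, hpq]
      rw [bne_iff_ne] at h
      exact h hb
  let πe : Equiv.Perm GolayPt := Equiv.ofBijective π (Finite.injective_iff_bijective.1 hπinj)
  refine ⟨πe.symm, mem_M24_of_octads fun o ho => ?_, fun c => ?_⟩
  · have hm : setNat o ∈ octMasks := (mem_octads_iff o).1 ho
    obtain ⟨i, w8, -⟩ := hQ _ hm
    have e : πe.symm • o = support₂ (y (toWord (setNat o))) := by
      ext p
      rw [show p ∈ πe.symm • o ↔ πe p ∈ o from by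
        rw [← Finset.inv_smul_mem_iff, Equiv.Perm.smul_def]; rfl]
      simp only [support₂, Finset.mem_filter, Finset.mem_univ, true_and]
      rw [hπ p _ (toWord_mem_golayCode i)]
      show π p ∈ o ↔ toWord (setNat o) (π p) ≠ 0
      conv_lhs => rw [← toSet_setNat o]
      rw [mem_toSet, toWord]
      split <;> simp_all
    rw [e]
    exact ⟨⟨_, ycode (toWord_mem_golayCode i), rfl⟩, w8⟩
  · have e : (fun p => (c : Wd) (πe.symm.symm p)) = y (c : Wd) := funext fun p => (hπ p _ c.2).symm
    rw [e]
    exact hall c

end Cfsg.Lib.Golay.LinOrb
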